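import Mathlib
import Cfsg.Agent.L.MathieuOrd
import Cfsg.Agent.L.PCGrp

/-! Sylow 2-subgroups of the Mathieu groups: certificates. -/

set_option autoImplicit false
set_option maxHeartbeats 400000

namespace Cfsg.Agent.L.PC

def us11 : List ℕ :=
  [936344708967080449770996552699365472, 466432965206712730683242280956465344,
    316012824521796599597285371698885120, 630443648067612166917968708617438272]

def tops11 : List ℕ :=
  [466432965206712730683242280956465344]

def cert11 : List (ℕ × ℕ × ℕ) :=
  [(316012824521796599597285371698885120, 466432965206712730683242280956465344,
    936344708967080449770996552699365472), (630443648067612166917968708617438272,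
    466432965206712730683242280956465344, 320191253129214474717290014856819200)]

def z11 : ℕ := 630443648067612166917968708617438272

def steps11 : List (ℕ × ℕ × ℕ × ℕ) :=
  [(630443648067612166917968708617438272, 630443648067612166917968708617438272,
    984818244535754528103549039458486304, 984818244535754528103549039458486304),
    (630443648067612166917968708617438272, 984818244535754528103549039458486304,
    879106155021048442608816770999815296, 648333173198446926654847902756766784),
    (648333173198446926654847902756766784, 630443648067612166917968708617438272,
    466432965206712730683242280956465344, 713508038817093280236299335846412672),
    (648333173198446926654847902756766784, 713508038817093280236299335846412672,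
    798739240924858322041195841689170432, 811720393662297121027263174277470336),
    (648333173198446926654847902756766784, 811720393662297121027263174277470336,
    984818244535754528103549039458486304, 936344708967080449770996552699365472),
    (630443648067612166917968708617438272, 811720393662297121027263174277470336,
    984818244535754528103549039458486304, 466432965206712730683242280956465344),
    (713508038817093280236299335846412672, 648333173198446926654847902756766784,
    984818244535754528103549039458486304, 316012824521796599597285371698885120)]

theorem us11_eq : us11 = 936344708967080449770996552699365472 :: (tops11 ++ cert11.map Prod.fst) := by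
  decide +kernel

theorem pc11 : pcOK 5 24 us11 = true := by decide +kernel

theorem center11 : centerOK 5 24 us11 (pcList 5 24 us11) z11 = true := by decide +kernel

theorem phi11 : phiOK 5 24 (pcList 5 24 us11) cert11 = true := by decide +kernel

theorem flag11 : flagOK 5 24 z11 (pcList 5 24 us11) (cert11.map Prod.fst) tops11 = true := by
  decide +kernel

theorem sc11 : scOK 5 24 (fixt 5 t12 [0]) us11 (pcList 5 24 us11) steps11 [z11] = true := by
  decide +kernel

theorem simple11 (S : Sylow 2 Spor.M11) : (groupFusionSystem (S : Subgroup Spor.M11)).IsSimple 2 :=
  GE.isSimple_of_cert tests11 us11_eq pc11 (by decide +kernel) (m := 495) (by decide)
    (card_M11.trans (by decide +kernel)) center11 phi11 flag11 sc11 S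

end Cfsg.Agent.L.PC
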