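import Mathlib
import Cfsg.Agent.L.MathieuOrd
import Cfsg.Agent.L.PCGrp

/-! Sylow 2-subgroups of the Mathieu groups: certificates. -/

set_option autoImplicit false
set_option maxHeartbeats 400000

namespace Cfsg.Agent.L.PC

def us12 : List ℕ :=
  [238386174671201694458455088559066688, 319759282927577914196340372564165000,
    962297163585250478268166171590231112, 316012824521796599597285371698885120,
    630443648067612166917968708617438272, 652214614957690504393949334613361737]

def tops12 : List ℕ :=
  [319759282927577914196340372564165000, 962297163585250478268166171590231112]

def cert12 : List (ℕ × ℕ × ℕ) :=
  [(316012824521796599597285371698885120, 962297163585250478268166171590231112,
    230589111156748807648711540183797321), (630443648067612166917968708617438272,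
    962297163585250478268166171590231112, 316012824521796599597285371698885120),
    (652214614957690504393949334613361737, 962297163585250478268166171590231112,
    319759282927577914196340372564165000)]

def z12 : ℕ := 630443648067612166917968708617438272

def steps12 : List (ℕ × ℕ × ℕ × ℕ) :=
  [(630443648067612166917968708617438272, 630443648067612166917968708617438272,
    984818244535754528103549039458486304, 984818244535754528103549039458486304),
    (984818244535754528103549039458486304, 630443648067612166917968708617438272,
    470773150824604513617569432887232009, 320191253129214474717290014856819200),
    (984818244535754528103549039458486304, 320191253129214474717290014856819200,
    238386174671201694458455088559066688, 970254902120350598020240965873371168),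
    (984818244535754528103549039458486304, 320191253129214474717290014856819200,
    319759282927577914196340372564165000, 735303724893876437674422376505393545),
    (630443648067612166917968708617438272, 320191253129214474717290014856819200,
    649264314781367215065565186765501542, 652057091188366676478457047314663464),
    (652057091188366676478457047314663464, 735303724893876437674422376505393545,
    484899965484729629614054396669479012, 799193471088490172816100589810618568),
    (320191253129214474717290014856819200, 652057091188366676478457047314663464,
    984818244535754528103549039458486304, 735539805939570211941048940650639885),
    (735539805939570211941048940650639885, 799193471088490172816100589810618568,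
    984818244535754528103549039458486304, 819914153574139314096803012805695616),
    (819914153574139314096803012805695616, 320191253129214474717290014856819200,
    984818244535754528103549039458486304, 238386174671201694458455088559066688),
    (735303724893876437674422376505393545, 652057091188366676478457047314663464,
    984818244535754528103549039458486304, 319759282927577914196340372564165000),
    (630443648067612166917968708617438272, 652057091188366676478457047314663464,
    984818244535754528103549039458486304, 962297163585250478268166171590231112),
    (320191253129214474717290014856819200, 970254902120350598020240965873371168,
    984818244535754528103549039458486304, 316012824521796599597285371698885120),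
    (320191253129214474717290014856819200, 735303724893876437674422376505393545,
    984818244535754528103549039458486304, 652214614957690504393949334613361737)]

theorem us12_eq : us12 = 238386174671201694458455088559066688 :: (tops12 ++ cert12.map Prod.fst) := by
  decide +kernel

theorem pc12 : pcOK 5 24 us12 = true := by decide +kernel

theorem center12 : centerOK 5 24 us12 (pcList 5 24 us12) z12 = true := by decide +kernel

theorem phi12 : phiOK 5 24 (pcList 5 24 us12) cert12 = true := by decide +kernel

theorem flag12 : flagOK 5 24 z12 (pcList 5 24 us12) (cert12.map Prod.fst) tops12 = true := by
  decide +kernel

theorem sc12 : scOK 5 24 t12 us12 (pcList 5 24 us12) steps12 [z12] = true := by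
  decide +kernel

theorem simple12 (S : Sylow 2 Spor.M12) : (groupFusionSystem (S : Subgroup Spor.M12)).IsSimple 2 :=
  GE.isSimple_of_cert tests12 us12_eq pc12 (by decide +kernel) (m := 1485) (by decide)
    (card_M12.trans (by decide +kernel)) center12 phi12 flag12 sc12 S

end Cfsg.Agent.L.PC
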