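import Mathlib
import Cfsg.Agent.L.PSolvFus
import Cfsg.Agent.L.Transport2
import Cfsg.Agent.H8.ResLim
import Cfsg.Agent.H8.PPrime
import Cfsg.Agent.H9.Inv
import Cfsg.Agent.S5139

/-! `O_p` of a weakly normal subsystem, and the residual series. -/

set_option autoImplicit false
set_option maxHeartbeats 400000

namespace Cfsg.Agent.L

open Equiv Cfsg.Fus Cfsg.FusionSystem

section
variable {Ω : Type*} [Group Ω] {S T : Subgroup Ω} {F : FusionSystem S} {E : FusionSystem T} {p : ℕ}
  [Finite S]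

theorem piso_of_iso {P Q : Subgroup Ω} {α : Perm Ω} (hα : F.Iso P Q α) : PIso P Q α ⇑α⁻¹ :=
  ⟨hα.homOn, fun _ hx => hα.mem hx, fun _ hy => hα.inv_mem hy, fun _ _ => by simp,
    fun _ _ => by simp⟩

theorem transp_aut_of_invariant (hE : E.IsInvariantIn F) {α : Perm Ω} (hα : F.Iso T T α) :
    Transp T T α ⇑α⁻¹ E E := by
  haveI : Finite T := finite_of_le hE.le
  have key : ∀ {α : Perm Ω}, F.Iso T T α → ∀ P f, E.IsMap P f →
      E.IsMap (img α P) (α ∘ f ∘ ⇑α⁻¹) := by
    intro α hα P f hf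
    obtain ⟨σ, hσ, h⟩ := hf.exists_perm
    refine (hE.conj hσ hα).congr fun y hy => ?_
    have : α⁻¹ y ∈ P := ((hα.restrict hf.le).inv_mem hy)
    simp only [Function.comp_apply, Perm.coe_mul, h _ this]
  refine ⟨piso_of_iso hα, le_rfl, hα.img_eq, fun P f hf => key hα P f hf, fun P f hf => ?_⟩
  simpa using key hα.symm P f hf

theorem img_core_of_invariant (hE : E.IsInvariantIn F) {α : Perm Ω} (hα : F.Iso T T α) :
    img α E.core = E.core := (transp_aut_of_invariant hE hα).img_core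

theorem stronglyClosed_of_invariant (hE : E.IsInvariantIn F) {A : Subgroup Ω}
    (hA : E.StronglyClosed A) (h : ∀ α, F.Iso T T α → ∀ x ∈ A, α x ∈ A) : F.StronglyClosed A := by
  refine stronglyClosed_iff.2 ⟨hA.le.trans hE.le, fun R f hf x hx hxA => ?_⟩
  obtain ⟨σ, hσ, h'⟩ := (hf.mono (R := R ⊓ A) inf_le_left).exists_perm
  obtain ⟨α, hα, h1⟩ := hE.frattini (inf_le_right.trans hA.le) hσ
  have := h α hα _ (hA.mem h1 (x := x) ⟨hx, hxA⟩ hxA)
  rw [← h' x ⟨hx, hxA⟩]
  simpa using this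

variable [Fact p.Prime]

theorem isNormal_of_invariant (hS : IsPGroup p S) (hF : F.IsSaturated p) (hE : E.IsInvariantIn F)
    {Q : Subgroup Ω} (hQ : E.IsNormal Q) (h : ∀ α, F.Iso T T α → img α Q = Q) : F.IsNormal Q := by
  haveI : Finite Q := finite_of_le (hQ.le.trans hE.le)
  obtain ⟨n, hn⟩ := exists_zSer_eq (hS.to_le (hQ.le.trans hE.le))
  refine hF.isNormal_of_chain hS (zSer_zero Q) hn (fun i _ => ?_) fun i _ => commutator_zSer_le Q i
  refine stronglyClosed_of_invariant hE (hQ.zSer i).stronglyClosed fun α hα x hx => ?_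
  have h1 := hα.restrict hQ.le
  rw [h α hα] at h1
  exact apply_mem_of_characteristic (zSer_characteristic Q i) (zSer_le Q i) h1.mem_autStab hx

theorem isNormal_core_of_invariant (hS : IsPGroup p S) (hF : F.IsSaturated p)
    (hE : E.IsInvariantIn F) : F.IsNormal E.core :=
  haveI : Finite T := finite_of_le hE.le
  isNormal_of_invariant hS hF hE (isNormal_core9 E) fun _ hα => img_core_of_invariant hE hα

theorem pElt_of_fix_of_hyp (hS : IsPGroup p S) {Q P : Subgroup Ω} (hQ : F.IsNormal Q)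
    (h : F.hyperfocalSubgroup p ⊓ Subgroup.centralizer (Q : Set Ω) ≤ Q) (hQP : Q ≤ P)
    {σ : Perm Ω} (hσ : F.Iso P P σ) (hfix : σ ∈ fixP Q) : ∃ k, σ ^ p ^ k ∈ fixP P := by
  haveI : Finite P := finite_of_le hσ.le_left
  obtain ⟨n, hn0, hn⟩ := H8.exists_pow_mem_fixP hσ
  obtain ⟨k, m, hm, rfl⟩ := Nat.exists_eq_pow_mul_and_not_dvd hn0 p (Fact.out : p.Prime).ne_one
  have hm' : m.Coprime p := ((Nat.Prime.coprime_iff_not_dvd Fact.out).2 hm).symm
  rw [pow_mul] at hn
  have h1 := hσ.pow (p ^ k)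
  have h2 : σ ^ p ^ k ∈ fixP Q := pow_mem hfix _
  refine ⟨k, mem_fixP_of_trivOn_of_coprime (A := Q) (hS.to_le hσ.le_left)
    ⟨h1.mem_autStab, fun x hx => h ⟨H8.PEl.inv_mul_mem_hyp ⟨h1, m, hm', hn⟩ hx, ?_⟩⟩
    (fun x hx => h2 x hx.1) hm' hn⟩
  intro q hq
  have h3 : x * q * x⁻¹ ∈ Q := hQ.stronglyClosed.conj_mem (hσ.le_left hx) hq
  have h4 := h2 _ h3
  rw [h1.homOn.map_conj hx (hQP hq), h2 q hq] at h4
  calc q * (x⁻¹ * (σ ^ p ^ k) x) = x⁻¹ * (x * q * x⁻¹) * (σ ^ p ^ k) x := by group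
    _ = _ := by rw [← h4]; group

theorem isConstrained_of_hyp (hS : IsPGroup p S) (hF : F.IsSaturated p) {Q : Subgroup Ω}
    (hQ : F.IsNormal Q) (h : F.hyperfocalSubgroup p ⊓ Subgroup.centralizer (Q : Set Ω) ≤ Q) :
    F.IsConstrained p := by
  have hsc := hQ.stronglyClosed.sup_centralizerIn9 hF hS
  have hn : F.IsNormal (Q ⊔ centralizerIn S Q) := by
    refine hsc.isNormal_of_frc hF hS fun R _ hc hr => ?_
    have hQR := hQ.le_of_centric_radical hS hc hr
    refine sup_le hQR (hc.le_of_radical hr hS (centralizerIn_le S Q) ?_ fun g hg hgn => ?_)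
    · intro r hr'
      exact mem_normalizer_inf (S.le_normalizer (hc.le hr'))
        (mem_normalizer_centralizer (hQ.le_normalizer (hc.le hr')))
    · refine le_opStab hc.le (U := F.stab R ⊓ fixP Q) inf_le_left
        (fun σ hσ => pElt_of_fix_of_hyp hS hQ h hQR ((mem_stab hc.le).1 hσ.1) hσ.2)
        (fun τ hτ u hu => ⟨(hτ.conj ((mem_stab hc.le).1 hu.1)).mem_stab, fun x hx => ?_⟩)
        ⟨(F.iso_cj hc.le hg.1 hgn).mem_stab, cj_mem_fixP.2 hg.2⟩
      have : τ⁻¹ x ∈ Q := hQ.stronglyClosed.mem hτ.symm.isMap (hQR hx) hx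
      rw [Perm.mul_apply, Perm.mul_apply, hu.2 _ this]
      simp
  refine ⟨hF, _, hn, isCentric_of_weaklyClosed hsc.weaklyClosed fun x hx => ?_⟩
  exact Subgroup.mem_sup_right ⟨hx.1, fun q hq => hx.2 q (Subgroup.mem_sup_left hq)⟩

end

section
variable {G : Type*} [Group G] {p : ℕ}

/-- `O^{p'}(G)`. -/
def pGen (p : ℕ) (G : Type*) [Group G] : Subgroup G :=
  Subgroup.closure {α : G | ∃ k : ℕ, orderOf α = p ^ k}

instance pGen_normal (p : ℕ) (G : Type*) [Group G] : (pGen p G).Normal := by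
  refine ⟨fun x hx g => ?_⟩
  have : (pGen p G).map (MulAut.conj g).toMonoidHom ≤ pGen p G := by
    rw [pGen, MonoidHom.map_closure]
    refine Subgroup.closure_mono ?_
    rintro _ ⟨a, ⟨k, hk⟩, rfl⟩
    exact ⟨k, by rw [← hk]; exact orderOf_injective _ (MulAut.conj g).injective a⟩
  exact this ⟨x, hx, rfl⟩

variable [Fact p.Prime]

theorem le_pGen {P : Subgroup G} (hP : IsPGroup p P) : P ≤ pGen p G := fun x hx => by
  obtain ⟨k, hk⟩ := IsPGroup.iff_orderOf.1 hP ⟨x, hx⟩
  exact Subgroup.subset_closure ⟨k, by rw [← hk, Subgroup.orderOf_mk]⟩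

variable [Finite G]

theorem index_pGen : (pGen p G).index.Coprime p := by
  obtain ⟨P⟩ := (inferInstance : Nonempty (Sylow p G))
  refine ((Nat.Prime.coprime_iff_not_dvd Fact.out).2 fun h => P.not_dvd_index ?_).symm
  exact h.trans (Subgroup.index_dvd_of_le (le_pGen P.isPGroup'))

theorem pGen_le_of_index {N : Subgroup G} [N.Normal] (h : N.index.Coprime p) : pGen p G ≤ N := by
  rw [pGen, Subgroup.closure_le]
  rintro g ⟨k, hk⟩
  refine mem_of_pow_mem_of_coprime (h.pow_right k) (N.pow_index_mem g) ?_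
  rw [← hk, pow_orderOf_eq_one]; exact N.one_mem

theorem isPSolvable_of_map_le {A B : Subgroup G} {N : Subgroup B} [N.Normal]
    (h : N.map B.subtype ≤ A) (hA : IsPSolvable p A) (hN : PGood p N.index) : IsPSolvable p B := by
  refine isPSolvable_of_normal_index N ?_ hN
  exact isPSolvable_of_injective ((Subgroup.inclusion h).comp (B.subtype.subgroupMap N))
    (fun a b hab => Subtype.ext (Subtype.ext (congrArg (fun x : A => (x : G)) hab))) hA

theorem isPSolvable_of_hyp {T Q : Subgroup G} (hT : IsSylowIn p T ⊤)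
    (hC : Subgroup.centralizer ((pCore p G : Subgroup G) : Set G) ≤ pCore p G)
    (hQ : (groupFusionSystem T).IsNormal Q)
    (h : (groupFusionSystem T).hyperfocalSubgroup p ⊓ Subgroup.centralizer (Q : Set G) ≤ Q)
    (hs : IsPSolvable p ((groupFusionSystem T).autGroup Q)) : IsPSolvable p G := by
  haveI := normal_of_isNormal_group hT hC hQ
  rw [groupFusionSystem_eq, autGroup_ofSubgroup _ hQ.le, ← range_conjNormal_eq] at hs
  refine isPSolvable_of_ker_range _ ?_ hs
  rw [ker_conjNormal_eq]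
  refine isPSolvable_of_isPGroup fun g => ?_
  have hle : Q ≤ pCore p G := H1.le_pCore inferInstance (hT.isPGroup.to_le hQ.le)
  have h1 : (groupFusionSystem T).Iso (pCore p G) (pCore p G) (cj (g : G)) :=
    (isMap_group_cj (pCore_le_sylowIn hT) fun x hx => pCore_le_sylowIn hT
      (Subgroup.Normal.conj_mem inferInstance x hx _)).iso_of_img
      (img_cj_eq_iff.2 (by rw [Subgroup.normalizer_eq_top]; trivial))
  obtain ⟨k, hk⟩ := pElt_of_fix_of_hyp hT.isPGroup hQ h hle h1 (cj_mem_fixP.2 g.2)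
  rw [← map_pow, cj_mem_fixP] at hk
  obtain ⟨l, hl⟩ := H1.pCore_isPGroup p G ⟨_, hC hk⟩
  refine ⟨k + l, Subtype.ext ?_⟩
  have := congrArg Subtype.val hl
  simpa [pow_add, pow_mul] using this

theorem isPPrimeResidual_group {T : Subgroup G} (hT : IsSylowIn p T ⊤)
    (hC : Subgroup.centralizer ((pCore p G : Subgroup G) : Set G) ≤ pCore p G) :
    (groupFusionSystem T).IsPPrimeResidual p
      (fusionSystemOfSubgroup (pGen p G) T (le_pGen hT.isPGroup)) := by
  have hsat : (groupFusionSystem T).IsSaturated p := isSaturated_groupFusionSystem hT.toSylowTop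
  refine ⟨isSaturated_ofSubgroup (hT.of_le (le_pGen hT.isPGroup) le_top), ?_, fun D hD hi => ?_⟩
  · refine H8.hasPrimeToPIndexIn_iff.2 ⟨isSubsystemOf_iff.2 fun P f hf => ?_, fun P σ hσ => ?_⟩
    · obtain ⟨h1, h2, g, -, h3⟩ := isMap_ofSubgroup.1 hf
      exact isMap_group.2 ⟨h1, h2, g, h3⟩
    · obtain ⟨h1, h2, g, h3⟩ := isMap_group.1 hσ.1.isMap
      obtain ⟨k, hk⟩ := hσ.2
      have h4 := Nat.ModEq.pow_totient ((index_pGen (p := p) (G := G)).pow_right k)
      have h5 : Nat.totient (p ^ k) ≠ 0 :=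
        (Nat.totient_pos.2 (pow_pos (Fact.out : p.Prime).pos k)).ne'
      obtain ⟨c, hc⟩ := dvd_pow_self (pGen p G).index h5
      refine isMap_ofSubgroup.2 ⟨h1, h2, g ^ ((pGen p G).index ^ Nat.totient (p ^ k)), ?_,
        fun x hx => ?_⟩
      · rw [hc, pow_mul]
        exact pow_mem ((pGen p G).pow_index_mem g) _
      · rw [← H8.pow_apply_of_modEq hk h4 (pow_ne_zero _ Subgroup.FiniteIndex.index_ne_zero) x hx,
          ← H8.pow_mem_fixP_congr hσ.1.mem_setStab (τ := cj g) (fun y hy => (h3 y hy).symm) _ x hx,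
          ← map_pow, cj_apply]
  · refine isSubsystemOf_iff.2 fun P f hf => ?_
    obtain ⟨h1, h2, g, hg, h3⟩ := isMap_ofSubgroup.1 hf
    have hQ := pCore_le_sylowIn hT
    have hn : ∀ g : G, (groupFusionSystem T).Iso (pCore p G) (pCore p G) (cj g) := fun g =>
      (isMap_group_cj hQ fun x hx => hQ (Subgroup.Normal.conj_mem inferInstance x hx _)).iso_of_img
        (img_cj_eq_iff.2 (by rw [Subgroup.normalizer_eq_top]; trivial))
    have h4 : pGen p G ≤ autInN D (pCore p G) := by
      rw [pGen, Subgroup.closure_le]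
      rintro a ⟨k, hk⟩
      refine (mem_autInN hQ).2 ⟨(H8.hasPrimeToPIndexIn_iff.1 hi).2 _ _ ⟨hn a, k, ?_⟩,
        (hn a).mem_iff⟩
      rw [← map_pow, ← hk, pow_orderOf_eq_one, map_one]
      exact one_mem _
    have h5 : (groupFusionSystem T).IsMap (P ⊔ pCore p G) (cj g) := by
      refine isMap_group_cj (sup_le h1 hQ) fun x hx => ?_
      have : P ⊔ pCore p G ≤ T.comap (MulAut.conj g).toMonoidHom :=
        sup_le (fun y hy => by have := h2 y hy; rw [h3 y hy] at this; exact this)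
          fun y hy => hQ (Subgroup.Normal.conj_mem inferInstance y hy _)
      exact this hx
    exact ((isMap_of_restrict_centric hT.isPGroup hsat hD hi.1 h5
      (isCentric_group_of_normal hQ hC) le_sup_right ((mem_autInN hQ).1 (h4 hg)).isMap).mono
      le_sup_left).congr h3

theorem pPrimeCore_eq_bot_of_charP
    (hC : Subgroup.centralizer ((pCore p G : Subgroup G) : Set G) ≤ pCore p G) :
    pPrimeCore p G = ⊥ := by
  have h : pPrimeCore p G ⊓ pCore p G = ⊥ := by
    obtain ⟨n, hn⟩ := (H1.pCore_isPGroup p G).exists_card_eq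
    refine Subgroup.inf_eq_bot_of_coprime ?_
    rw [hn]
    exact Nat.Coprime.pow_right n (H1.pPrimeCore_coprime p G)
  rw [eq_bot_iff, ← h]
  refine le_inf le_rfl (le_trans ?_ hC)
  rw [← Subgroup.commutator_eq_bot_iff_le_centralizer, eq_bot_iff, ← h]
  exact Subgroup.commutator_le_inf _ _

theorem pPrimeCore_normal_eq_bot (h : pPrimeCore p G = ⊥) (N : Subgroup G) [N.Normal] :
    pPrimeCore p N = ⊥ := by
  rw [← Subgroup.map_eq_bot_iff_of_injective _ N.subtype_injective, eq_bot_iff, ← h]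
  refine H1.le_pPrimeCore inferInstance ?_
  rw [Subgroup.card_map_of_injective N.subtype_injective]
  exact H1.pPrimeCore_coprime p N

end

theorem hasTerm_of_pPrimeResidual {Ω : Type*} [Group Ω] {S : Subgroup Ω} {F E : FusionSystem S}
    {p : ℕ} [Fact p.Prime] (h : F.IsPPrimeResidual p E) (hE : E.HasTerminatingResidualSeries p) :
    F.HasTerminatingResidualSeries p := by
  cases hE with
  | trivial _ _ h0 => exact .trivial _ _ h0
  | step _ E' _ D h1 h2 h3 =>
    obtain rfl := H8.IsPPrimeResidual_unique h1 (H8.IsPPrimeResidual_idem h)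
    exact .step _ _ _ D h h2 h3

theorem hasTerm_group.{u} {p : ℕ} [Fact p.Prime] (n : ℕ) : ∀ (G : Type u) [Group G] [Finite G],
    Nat.card G = n → IsPSolvable p G → pPrimeCore p G = ⊥ → ∀ T : Subgroup G, IsSylowIn p T ⊤ →
      (groupFusionSystem T).HasTerminatingResidualSeries p := by
  induction n using Nat.strong_induction_on with
  | _ n ih =>
  intro G _ _ hn hs h0 T hT
  have key : ∀ (N : Subgroup G) [N.Normal], N ≠ ⊤ → ∀ (U : Subgroup G) (hU : IsSylowIn p U N),
      (fusionSystemOfSubgroup N U hU.le).HasTerminatingResidualSeries p := by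
    intro N _ hN U hU
    refine (transp_subgroupOf hU.le).hasTerminatingResidualSeries (ih _ ?_ N rfl
      (isPSolvable_subgroup hs N) (pPrimeCore_normal_eq_bot h0 N) _
      ((isSylowIn_subgroupOf_top_iff hU.le).2 hU))
    rw [← hn, ← Subgroup.card_top (G := G)]
    exact H1.card_lt_of_lt (lt_top_iff_ne_top.2 hN)
  have hC := H3.centralizer_pCore_le_of_isPSolvable hs h0
  have hE := isPPrimeResidual_group hT hC
  by_cases h1 : pGen p G = ⊤
  swap
  · exact hasTerm_of_pPrimeResidual hE (key _ h1 T (hT.of_le (le_pGen hT.isPGroup) le_top))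
  by_cases hG : Nontrivial G
  swap
  · rw [not_nontrivial_iff_subsingleton] at hG
    exact .trivial _ _ (Subsingleton.elim _ _)
  have hE' : (groupFusionSystem T).IsPPrimeResidual p (groupFusionSystem T) := by
    convert hE
    rw [groupFusionSystem_eq]
    congr
    exact h1.symm
  have hsat : (groupFusionSystem T).IsSaturated p := hE'.1
  obtain ⟨D, hD⟩ := H8.exists_isPResidual hsat hT.isPGroup
  refine .step _ _ _ D hE' hD ?_
  obtain ⟨h2, h3⟩ := S5139.result p hT.toSylowTop D hD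
  have h4 : pResidual p G ≠ ⊤ := by
    obtain ⟨N, hN, hne, hg | hg⟩ := exists_normal_good_index hs
    · obtain ⟨m, hm⟩ := hg
      exact fun h => hne (top_le_iff.1 (h ▸ H1.pResidual_le_of_isPGroup_quotient
        (IsPGroup.of_card hm)))
    · exact absurd (top_le_iff.1 (h1 ▸ pGen_le_of_index hg)) hne
  haveI := H1.pResidual_normal p G
  have h5 := key _ h4 _ (sylow_inf_normal hT.toSylowTop (pResidual p G))
  exact H8.SameHom.transport (M := fun E => E.HasTerminatingResidualSeries p)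
    (fun P => (h3 P).symm) h5

theorem constrained_of_hyp.{u} {Ω : Type u} [Group Ω] {S : Subgroup Ω} [Finite S]
    {F : FusionSystem S} {p : ℕ} [Fact p.Prime] (hS : IsPGroup p S) (hF : F.IsSaturated p)
    {Q : Subgroup Ω} (hQ : F.IsNormal Q)
    (h : F.hyperfocalSubgroup p ⊓ Subgroup.centralizer (Q : Set Ω) ≤ Q)
    (hs : IsPSolvable p (F.autGroup Q)) :
    F.IsConstrained p ∧ IsPSolvable p (F.autGroup F.core) := by
  have hc := isConstrained_of_hyp hS hF hQ h
  obtain ⟨G, _, ι, hm⟩ := exists_model hS hc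
  haveI := hm.1
  obtain ⟨θ', t⟩ := exists_transp_of_realized hm.2.1
  refine ⟨hc, (model_isPSolvable_iff hm).1 (isPSolvable_of_hyp (model_isSylowIn hm) hm.2.2.2
    (t.isNormal hQ) ?_ (isPSolvable_of_equiv (t.autGroupEquiv hQ.le) hs))⟩
  intro y hy
  have h1 : y ∈ img (extFun ι) (centralizerIn S Q) := by
    rw [t.img_centralizerIn hQ.le]
    exact ⟨H8.hyp_le _ p hy.1, hy.2⟩
  have h2 := hy.1
  rw [← t.img_hyperfocal] at h2
  have h3 := (t.piso.mem_img_iff (H8.hyp_le F p)).1 h2
  exact (t.piso.mem_img_iff hQ.le).2 ⟨h3.1, h ⟨h3.2,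
    (t.piso.inv_mem (centralizerIn_le S Q) h1).2⟩⟩

theorem constrained_of_hasTerm.{u} {Ω : Type u} [Group Ω] {S : Subgroup Ω} {F : FusionSystem S}
    {p : ℕ} (h : F.HasTerminatingResidualSeries p) : ∀ [Fact p.Prime] [Finite S], IsPGroup p S →
    F.IsSaturated p → F.IsConstrained p ∧ IsPSolvable p (F.autGroup F.core) := by
  induction h with
  | trivial F p h0 =>
    intro _ _ hS hF
    subst h0
    refine constrained_of_hyp hS hF (isNormal_core9 F) ?_ ?_
    · exact inf_le_left.trans ((H8.hyp_le F p).trans bot_le)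
    · have : F.core = ⊥ := le_bot_iff.1 (isNormal_core9 F).le
      rw [this]
      exact isPSolvable_of_good (Or.inl ⟨0, Nat.card_unique⟩)
  | @step S F E p D h1 h2 _ ih =>
    intro _ _ hS hF
    haveI : Finite (E.hyperfocalSubgroup p) := finite_of_le (H8.hyp_le E p)
    obtain ⟨c1, c2⟩ := ih (hS.to_le (H8.hyp_le E p)) h2.1
    have n1 := isNormal_core_of_invariant hS h1.1 (H8.IsPResidual_isNormalIn h1.1 hS h2).inv
    haveI : Finite D.core := finite_of_le n1.le
    haveI : Finite E.core := finite_of_le (isNormal_core9 E).le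
    obtain ⟨c3, c4⟩ := constrained_of_hyp hS h1.1 n1 (isCentric_core c1).centralizerIn_le
      (haveI := H1.pResidual_normal p (E.autGroup D.core)
      isPSolvable_of_map_le (h2.2.2.2 _ (isNormal_core9 D).le) c2 (Or.inl H1.index_pResidual))
    have n2 := isNormal_core_of_invariant hS hF (H8.IsPPrimeResidual_isNormalIn hF hS h1).inv
    exact constrained_of_hyp hS hF n2
      ((inf_le_inf_right _ (H8.hyp_le F p)).trans (isCentric_core c3).centralizerIn_le)
      (isPSolvable_of_map_le (N := pGen p _) (h1.2.1.2 _ n2.le) c4 (Or.inr index_pGen))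

end Cfsg.Agent.L
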